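import Cfsg.Agent.H974.Gs.LinA
import Cfsg.Agent.H915.Gs.SL2W
import Cfsg.Agent.H127.Gs.Emb

/-!
# S4327, `SL_n`, linear case, `q = 5`, `g² = β` with `β` a non-square: start on an invariant 4-space

* `gen_w` : a subgroup of `SL_4(F)` containing `NatG {0,1}` and the element `w = s (g₀ s g₀⁻¹)⁻¹`,
  `s = (1 + e₀₂)(1 + e₂₁)`, `g₀ = mC 0 β`, is everything (any field);
* `reach_five` : for `|F| = 5` five conjugates of `glc g` reach the natural `SL_4` on an invariant frame with matrix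
  `mC 0 β`.
-/

set_option autoImplicit false

namespace Cfsg.Agent.H127.Gs

open Matrix Subgroup Cfsg.Agent.H915.Gs Cfsg.Agent.LieClassical.SLTwoUnipotent

section four

variable {F : Type*} [Field F]

/-- coordinates on `Fin 4` -/
theorem vec4_mem {I : Finset (Fin 4)} {v : Fin 4 → F} (h : ∀ i, i ∉ I → v i = 0) : v ∈ cs (F := F) I := h

theorem dot4 (v w : Fin 4 → F) : v ⬝ᵥ w = v 0 * w 0 + v 1 * w 1 + v 2 * w 2 + v 3 * w 3 := by
  simp [dotProduct, Fin.sum_univ_four]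

/-- **generation in `SL_4`** -/
theorem gen_w {b : F} (hb : b ≠ 0) {H : Subgroup (Matrix.SpecialLinearGroup (Fin 4) F)}
    (h01 : NatG F ({0, 1} : Finset (Fin 4)) ≤ H) {w : Matrix.SpecialLinearGroup (Fin 4) F} (hw : w ∈ H)
    (w0 : (w : Matrix (Fin 4) (Fin 4) F) *ᵥ ![1, 0, 0, 0] = ![1, 0, 0, -b])
    (w1 : (w : Matrix (Fin 4) (Fin 4) F) *ᵥ ![0, 1, 0, 0] = ![1, 1, 1, 0])
    (r0 : ![1, 0, 0, 0] ᵥ* ((w⁻¹ : Matrix.SpecialLinearGroup (Fin 4) F) : Matrix (Fin 4) (Fin 4) F) = ![1, 0, -1, 0])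
    (r1 : ![0, 1, 0, 0] ᵥ* ((w⁻¹ : Matrix.SpecialLinearGroup (Fin 4) F) : Matrix (Fin 4) (Fin 4) F) = ![b, 1, -b, 1]) :
    H = ⊤ := by
  have hT : HasT H (cs {0, 1}) (cs {0, 1}) := fun v hv f hf hvf => h01 (hasT_NatG _ v hv f hf hvf)
  -- the first transvection
  have t1 : tv (![1, 1, 0, 0] + ![0, 0, 1, 0] : Fin 4 → F) (![1, 0, 0, 0] + ![0, 0, -1, 0]) ∈ H := by
    have h1 : w * tv ![0, 1, 0, 0] ![1, 0, 0, 0] * w⁻¹ ∈ H := by
      refine mul_mem (mul_mem hw (h01 (hasT_NatG _ _ ?_ _ ?_ ?_))) (inv_mem hw)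
      · refine vec4_mem fun i hi => ?_
        fin_cases i <;> simp_all
      · refine vec4_mem fun i hi => ?_
        fin_cases i <;> simp_all
      · simp [dot4]
    rw [conj_tv w (by simp [dot4]), w1, r0] at h1
    convert h1 using 2 <;> (ext i; fin_cases i <;> simp)
  have g1 := hT.grow (sep_cs _) (a₀ := ![1, 1, 0, 0]) (c := ![0, 0, 1, 0]) (fA := ![1, 0, 0, 0]) (fC := ![0, 0, -1, 0])
    (vec4_mem fun i hi => by fin_cases i <;> simp_all) (vec4_mem fun i hi => by fin_cases i <;> simp_all)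
    (by simp [dot4])
    (fun f hf => (dot4 f _).trans (by rw [show f 2 = 0 from hf 2 (by decide)]; simp))
    (fun v hv => (dot4 _ v).trans (by rw [show v 2 = 0 from hv 2 (by decide)]; simp))
    (by simp [dot4])
    ⟨![0, 1, 0, 0], vec4_mem fun i hi => by fin_cases i <;> simp_all, fun h => by simpa using congrFun h 1,
      by simp [dot4]⟩
    ⟨![1, -1, 0, 0], vec4_mem fun i hi => by fin_cases i <;> simp_all, fun h => by simpa using congrFun h 1,
      by simp [dot4]⟩ t1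
  have h012 : NatG F ({2, 0, 1} : Finset (Fin 4)) ≤ H := by
    refine NatG_le (g1.mono ?_ ?_)
    · have e : (![0, 0, 1, 0] : Fin 4 → F) = Pi.single 2 1 := by ext i; fin_cases i <;> simp
      rw [e]
      exact cs_insert_le one_ne_zero
    · have e : (![0, 0, -1, 0] : Fin 4 → F) = Pi.single 2 (-1) := by ext i; fin_cases i <;> simp
      rw [e]
      exact cs_insert_le (neg_ne_zero.2 one_ne_zero)
  have hT2 : HasT H (cs {2, 0, 1}) (cs {2, 0, 1}) := fun v hv f hf hvf => h012 (hasT_NatG _ v hv f hf hvf)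
  have t2 : tv (![1, 0, 0, 0] + ![0, 0, 0, -b] : Fin 4 → F) (![b, 1, -b, 0] + ![0, 0, 0, 1]) ∈ H := by
    have h1 : w * tv ![1, 0, 0, 0] ![0, 1, 0, 0] * w⁻¹ ∈ H := by
      refine mul_mem (mul_mem hw (h01 (hasT_NatG _ _ ?_ _ ?_ ?_))) (inv_mem hw)
      · refine vec4_mem fun i hi => ?_
        fin_cases i <;> simp_all
      · refine vec4_mem fun i hi => ?_
        fin_cases i <;> simp_all
      · simp [dot4]
    rw [conj_tv w (by simp [dot4]), w0, r1] at h1
    convert h1 using 2 <;> (ext i; fin_cases i <;> simp)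
  have g2 := hT2.grow (sep_cs _) (a₀ := ![1, 0, 0, 0]) (c := ![0, 0, 0, -b]) (fA := ![b, 1, -b, 0]) (fC := ![0, 0, 0, 1])
    (vec4_mem fun i hi => by fin_cases i <;> simp_all) (vec4_mem fun i hi => by fin_cases i <;> simp_all)
    (by simpa [dot4] using hb)
    (fun f hf => (dot4 f _).trans (by rw [show f 3 = 0 from hf 3 (by decide)]; simp))
    (fun v hv => (dot4 _ v).trans (by rw [show v 3 = 0 from hv 3 (by decide)]; simp))
    (by simp [dot4])
    ⟨![1, 0, 1, 0], vec4_mem fun i hi => by fin_cases i <;> simp_all, fun h => by simpa using congrFun h 0,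
      by simp [dot4]⟩
    ⟨![0, 1, 0, 0], vec4_mem fun i hi => by fin_cases i <;> simp_all, fun h => by simpa using congrFun h 1,
      by simp [dot4]⟩ t2
  have h0123 : NatG F ({3, 2, 0, 1} : Finset (Fin 4)) ≤ H := by
    refine NatG_le (g2.mono ?_ ?_)
    · have e : (![0, 0, 0, -b] : Fin 4 → F) = Pi.single 3 (-b) := by ext i; fin_cases i <;> simp
      rw [e]
      exact cs_insert_le (neg_ne_zero.2 hb)
    · have e : (![0, 0, 0, 1] : Fin 4 → F) = Pi.single 3 1 := by ext i; fin_cases i <;> simp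
      rw [e]
      exact cs_insert_le one_ne_zero
  have e : ({3, 2, 0, 1} : Finset (Fin 4)) = Finset.univ := by decide
  rw [e, NatG_univ] at h0123
  exact top_le_iff.1 h0123

end four

section five

open Cfsg.Agent.H974.Gs (mC gC coe_gC glc glc_tv glc_emb_inv Frames Pr frame_of_quad reach_nat)

variable {F : Type*} [Field F]

theorem mC_mulVec (β : F) (x : Fin 4 → F) : mC 0 β *ᵥ x = ![β * x 1, x 0, β * x 3, x 2] := by
  ext i
  fin_cases i <;> simp [mC, mulVec, dotProduct, Fin.sum_univ_four]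

theorem vecMul_mC (β : F) (x : Fin 4 → F) : x ᵥ* mC 0 β = ![x 1, β * x 0, x 3, β * x 2] := by
  ext i
  fin_cases i <;> simp [mC, vecMul, dotProduct, Fin.sum_univ_four, mul_comm]

theorem gC_mulVec {β : F} (hβ : β ≠ 0) (x : Fin 4 → F) :
    ((gC 0 β hβ : GL (Fin 4) F) : Matrix (Fin 4) (Fin 4) F) *ᵥ x = ![β * x 1, x 0, β * x 3, x 2] := by
  rw [coe_gC, mC_mulVec]

theorem vecMul_gC_inv {β : F} (hβ : β ≠ 0) (x : Fin 4 → F) :
    x ᵥ* (((gC 0 β hβ)⁻¹ : GL (Fin 4) F) : Matrix (Fin 4) (Fin 4) F) = ![β⁻¹ * x 1, x 0, β⁻¹ * x 3, x 2] := by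
  have h1 : x = ![β⁻¹ * x 1, x 0, β⁻¹ * x 3, x 2] ᵥ* ((gC 0 β hβ : GL (Fin 4) F) : Matrix (Fin 4) (Fin 4) F) := by
    rw [coe_gC, vecMul_mC]
    ext i
    fin_cases i <;> simp [hβ]
  conv_lhs => rw [h1]
  rw [vecMul_vecMul, Cfsg.Agent.H974.Gs.val_mul_inv, vecMul_one]

/-- conjugating a transvection of `SL_4` by `mC 0 β` -/
theorem glc_gC_tv {β : F} (hβ : β ≠ 0) {v f : Fin 4 → F} (h : f ⬝ᵥ v = 0) :
    glc (gC 0 β hβ) (tv v f) = tv ![β * v 1, v 0, β * v 3, v 2] ![β⁻¹ * f 1, f 0, β⁻¹ * f 3, f 2] := by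
  rw [glc_tv _ h, gC_mulVec, vecMul_gC_inv]

/-- the element `s` -/
noncomputable def s4 (F : Type*) [Field F] : Matrix.SpecialLinearGroup (Fin 4) F :=
  tv ![1, 0, 0, 0] ![0, 0, 1, 0] * tv ![0, 0, 1, 0] ![0, 1, 0, 0]

theorem glc_s4 {β : F} (hβ : β ≠ 0) :
    glc (gC 0 β hβ) (s4 F) = tv ![0, 1, 0, 0] ![0, 0, 0, 1] * tv ![0, 0, 0, 1] ![β⁻¹, 0, 0, 0] := by
  rw [s4, map_mul, glc_gC_tv hβ (by simp [dot4]), glc_gC_tv hβ (by simp [dot4])]
  simp

theorem sup_eq_top {β : F} (hβ : β ≠ 0) :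
    NatG F ({0, 1} : Finset (Fin 4)) ⊔ zpowers (s4 F * (glc (gC 0 β hβ) (s4 F))⁻¹) = ⊤ := by
  refine gen_w (b := β⁻¹) (inv_ne_zero hβ) le_sup_left (mem_sup_right (mem_zpowers _)) ?_ ?_ ?_ ?_
  · rw [glc_s4, s4, _root_.mul_inv_rev, tv_inv (by simp [dot4]), tv_inv (by simp [dot4])]
    simp only [Matrix.SpecialLinearGroup.coe_mul, ← mulVec_mulVec]
    rw [tv_mulVec (by simp [dot4]), tv_mulVec (by simp [dot4]), tv_mulVec (by simp [dot4]), tv_mulVec (by simp [dot4])]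
    ext i
    fin_cases i <;> simp [dot4]
  · rw [glc_s4, s4, _root_.mul_inv_rev, tv_inv (by simp [dot4]), tv_inv (by simp [dot4])]
    simp only [Matrix.SpecialLinearGroup.coe_mul, ← mulVec_mulVec]
    rw [tv_mulVec (by simp [dot4]), tv_mulVec (by simp [dot4]), tv_mulVec (by simp [dot4]), tv_mulVec (by simp [dot4])]
    ext i
    fin_cases i <;> simp [dot4]
  · rw [_root_.mul_inv_rev, inv_inv, glc_s4, s4, _root_.mul_inv_rev, tv_inv (by simp [dot4]), tv_inv (by simp [dot4])]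
    simp only [Matrix.SpecialLinearGroup.coe_mul, ← vecMul_vecMul]
    rw [vecMul_tv (by simp [dot4]), vecMul_tv (by simp [dot4]), vecMul_tv (by simp [dot4]), vecMul_tv (by simp [dot4])]
    ext i
    fin_cases i <;> simp [dot4]
  · rw [_root_.mul_inv_rev, inv_inv, glc_s4, s4, _root_.mul_inv_rev, tv_inv (by simp [dot4]), tv_inv (by simp [dot4])]
    simp only [Matrix.SpecialLinearGroup.coe_mul, ← vecMul_vecMul]
    rw [vecMul_tv (by simp [dot4]), vecMul_tv (by simp [dot4]), vecMul_tv (by simp [dot4]), vecMul_tv (by simp [dot4])]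
    ext i
    fin_cases i <;> simp [dot4]

/-- the first two coordinates -/
def e24 : Fin 2 ↪ Fin 4 := ⟨![0, 1], by decide⟩

theorem map_e24 : Finset.univ.map e24 = ({0, 1} : Finset (Fin 4)) := by decide

theorem Em_e24 (a b : F) : Em F e24 *ᵥ ![a, b] = ![a, b, 0, 0] := by
  ext i
  fin_cases i <;> simp [Em, e24, mulVec, dotProduct, Fin.sum_univ_two]

theorem u_eq_tv (t : F) : u t = tv ![t, 0] ![0, 1] := by
  apply sl_ext
  rw [coe_u, coe_tv (by simp)]
  ext i j
  fin_cases i <;> fin_cases j <;> simp [vecMulVec_apply]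

theorem l_eq_tv (t : F) : l t = tv ![0, t] ![1, 0] := by
  apply sl_ext
  rw [coe_l, coe_tv (by simp)]
  ext i j
  fin_cases i <;> fin_cases j <;> simp [vecMulVec_apply]

theorem tv_scale {ι : Type*} [Fintype ι] [DecidableEq ι] {v f v' f' : ι → F} (h : f ⬝ᵥ v = 0) (h' : f' ⬝ᵥ v' = 0)
    (e : vecMulVec v f = vecMulVec v' f') : tv v f = tv v' f' := by
  apply sl_ext
  rw [coe_tv h, coe_tv h', e]

variable [Fintype F] {ι : Type*} [Fintype ι] [DecidableEq ι]

/-- **five conjugates on an invariant 4-space, `q = 5`** -/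
theorem reach_five (h5 : Fintype.card F = 5) {g : GL ι F} {β : F} (hβ : β ≠ 0) {A : Matrix ι (Fin 4) F}
    {B : Matrix (Fin 4) ι F} (h : B * A = 1) (hA : (g : Matrix ι ι F) * A = A * mC 0 β)
    (hB : B * (g : Matrix ι ι F) = mC 0 β * B) : Reach (glc g) 5 (Cfsg.Agent.H974.Gs.emb A B h).range := by
  set φ := Cfsg.Agent.H974.Gs.emb A B h with hφ
  have hφg : ∀ s, glc g (φ s) = φ (glc (gC 0 β hβ) s) := fun s => glc_emb_inv g (gC 0 β hβ) h hA hB s
  let ψ : Matrix.SpecialLinearGroup (Fin 2) F →* Matrix.SpecialLinearGroup ι F := φ.comp (emb e24)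
  have hψ : ∀ t, glc g (ψ (u t)) = ψ (l (β⁻¹ * (RingEquiv.refl F) t)) := by
    intro t
    change glc g (φ (emb e24 (u t))) = φ (emb e24 (l (β⁻¹ * t)))
    rw [hφg]
    congr 1
    rw [u_eq_tv, l_eq_tv, emb_tv e24 (by simp), emb_tv e24 (by simp), Em_e24, Em_e24, Em_e24, Em_e24,
      glc_gC_tv hβ (by simp [dot4])]
    refine tv_scale (by simp [dot4]) (by simp [dot4]) ?_
    ext i j
    fin_cases i <;> fin_cases j <;> simp [vecMulVec_apply, mul_comm]
  have h1 : Reach₁ (glc g) 3 ψ.range := sl2w_five h5 (inv_ne_zero hβ) hψ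
  have h2 := (h1.add (φ (s4 F))).reach
  have e : ψ.range ⊔ zpowers (φ (s4 F) * (glc g (φ (s4 F)))⁻¹) = φ.range := by
    rw [MonoidHom.range_eq_map φ, ← sup_eq_top hβ, Subgroup.map_sup, MonoidHom.map_zpowers, map_mul, map_inv, hφg,
      MonoidHom.range_comp, range_emb, map_e24]
  rwa [e] at h2

/-- the quadratic case with `α = 0`, `q = 5` -/
theorem reach_five_quad (h3 : 3 ≤ Fintype.card ι) (hfr : Frames F ι 4) (h5 : Fintype.card F = 5) {g : GL ι F} {β : F}
    (hβ : β ≠ 0)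
    (hq : ∀ v : ι → F, (g : Matrix ι ι F) *ᵥ ((g : Matrix ι ι F) *ᵥ v) = (0 : F) • ((g : Matrix ι ι F) *ᵥ v) + β • v)
    (hP : Pr g β⁻¹) {v w : ι → F}
    (hli : LinearIndependent F ![v, (g : Matrix ι ι F) *ᵥ v, w, (g : Matrix ι ι F) *ᵥ w]) {I : Finset ι}
    (hI : 4 ≤ I.card) : Reach (glc g) (I.card + 1) (NatG F I) := by
  obtain ⟨A, B, hBA, hA, hB⟩ := frame_of_quad g hq hli
  obtain ⟨I₀, hI₀, hcard⟩ := Finset.exists_subset_card_eq hI
  have h1 := reach_nat hfr (reach_five h5 hβ hBA hA hB) hcard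
  have h2 := reach_of_subset h3 (hP.opp (inv_ne_zero hβ)) (by omega : 2 ≤ I₀.card) h1 hI₀
  rw [hcard] at h2
  have e : 5 + (I.card - 4) = I.card + 1 := by omega
  rwa [e] at h2

end five

section alpha

variable {F : Type*} [Field F] {ι : Type*} [Fintype ι] [DecidableEq ι]

/-- **prime order modulo scalars and `-β` not a square give `α = 0`** -/
theorem alpha_eq_zero {G : Matrix ι ι F} {α β : F} (hq : ∀ v : ι → F, G *ᵥ (G *ᵥ v) = α • (G *ᵥ v) + β • v)
    (hns : ∃ v : ι → F, ∀ μ : F, G *ᵥ v ≠ μ • v) {r : ℕ} (hr : r.Prime) {c : F} (hc : G ^ r = c • (1 : Matrix ι ι F))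
    (hsq : ¬ IsSquare (-β)) : α = 0 := by
  obtain ⟨v, hv⟩ := hns
  have hv0 : v ≠ 0 := by
    rintro rfl
    exact hv 0 (by rw [mulVec_zero, smul_zero])
  have hli : LinearIndependent F ![v, G *ᵥ v] := by
    rw [LinearIndependent.pair_iff' hv0]
    intro a ha
    exact hv a ha.symm
  rcases hr.eq_two_or_odd' with rfl | hodd
  · by_contra hα
    have h1 := hq v
    have h2 : G *ᵥ (G *ᵥ v) = c • v := by
      rw [mulVec_mulVec, ← sq, hc, smul_mulVec, one_mulVec]
    rw [h2] at h1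
    refine hv (α⁻¹ * (c - β)) ?_
    have h3 : α • (G *ᵥ v) = (c - β) • v := by rw [sub_smul, h1, add_sub_cancel_right]
    rw [mul_smul, ← h3, smul_smul, inv_mul_cancel₀ hα, one_smul]
  · exfalso
    let M : Matrix (Fin 2) (Fin 2) F := !![0, β; 1, α]
    let A : Matrix ι (Fin 2) F := Matrix.of fun i j => ![v i, (G *ᵥ v) i] j
    have hA : ∀ x : Fin 2 → F, A *ᵥ x = x 0 • v + x 1 • (G *ᵥ v) := by
      intro x
      ext i
      simp [A, mulVec, dotProduct, Fin.sum_univ_two, mul_comm]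
    have hM : ∀ x : Fin 2 → F, M *ᵥ x = ![β * x 1, x 0 + α * x 1] := by
      intro x
      ext i
      fin_cases i <;> simp [M, mulVec, dotProduct, Fin.sum_univ_two]
    have h1 : ∀ x : Fin 2 → F, G *ᵥ (A *ᵥ x) = A *ᵥ (M *ᵥ x) := by
      intro x
      rw [hA, hA, hM, mulVec_add, mulVec_smul, mulVec_smul, hq v]
      simp only [Matrix.cons_val_zero, Matrix.cons_val_one]
      module
    have h2 : ∀ (k : ℕ) (x : Fin 2 → F), (G ^ k) *ᵥ (A *ᵥ x) = A *ᵥ ((M ^ k) *ᵥ x) := by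
      intro k
      induction k with
      | zero => intro x; simp
      | succ k ih => intro x; rw [pow_succ, ← mulVec_mulVec, h1, ih, pow_succ, ← mulVec_mulVec]
    have h3 : M ^ r = c • (1 : Matrix (Fin 2) (Fin 2) F) := by
      have h4 : ∀ x, (M ^ r) *ᵥ x = c • x := by
        intro x
        have h5 := h2 r x
        rw [hc, smul_mulVec, one_mulVec, ← mulVec_smul, hA, hA] at h5
        have h6 := LinearIndependent.pair_iff.1 hli ((c • x) 0 - ((M ^ r) *ᵥ x) 0) ((c • x) 1 - ((M ^ r) *ᵥ x) 1) (by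
          rw [sub_smul, sub_smul]
          linear_combination (exp := 1) h5)
        ext i
        fin_cases i
        · exact (sub_eq_zero.1 h6.1).symm
        · exact (sub_eq_zero.1 h6.2).symm
      apply Matrix.toLin'.injective
      apply LinearMap.ext
      intro x
      rw [toLin'_apply, toLin'_apply, h4, smul_mulVec, one_mulVec]
    have h7 := congrArg Matrix.det h3
    rw [det_pow, det_smul, det_one, mul_one, Fintype.card_fin, det_fin_two_of] at h7
    obtain ⟨k, rfl⟩ := hodd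
    by_cases hβ : β = 0
    · exact hsq ⟨0, by rw [hβ]; ring⟩
    · apply hsq
      refine ⟨c / (-β) ^ k, ?_⟩
      have h8 : (-β) ^ k ≠ 0 := pow_ne_zero _ (neg_ne_zero.2 hβ)
      rw [show (0 * α - β * 1) = -β by ring] at h7
      rw [div_mul_div_comm, eq_div_iff (mul_ne_zero h8 h8), ← pow_add, ← pow_succ', ← sq, ← h7]
      congr 1
      omega

theorem neg_isSquare_of_five {F : Type*} [Field F] [Fintype F] (h5 : Fintype.card F = 5) {β : F} (h : IsSquare (-β)) :
    IsSquare β := by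
  have h0 : (5 : F) = 0 := by
    have := Nat.cast_card_eq_zero F
    rw [h5] at this
    exact_mod_cast this
  obtain ⟨r, hr⟩ := h
  exact ⟨2 * r, by linear_combination (-1) * hr - (r * r) * h0⟩

end alpha

end Cfsg.Agent.H127.Gs
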